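import Cfsg.Agent.L0.Cover

/-! Lower bounds for the Schur multiplier of a central quotient. -/

set_option autoImplicit false
set_option linter.style.haveILetI false

namespace Cfsg.Agent.L0

open scoped commutatorElement

universe u

theorem finite_commutatorSet_of_center {Γ : Type u} [Group Γ] [Finite (Γ ⧸ Subgroup.center Γ)] :
    Finite (commutatorSet Γ) := by
  let f : (Γ ⧸ Subgroup.center Γ) × (Γ ⧸ Subgroup.center Γ) → Γ := fun p => ⁅p.1.out, p.2.out⁆
  refine Set.Finite.subset (Set.finite_range f) ?_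
  rintro _ ⟨a, b, rfl⟩
  refine ⟨(QuotientGroup.mk a, QuotientGroup.mk b), ?_⟩
  obtain ⟨⟨c, hc⟩, h1⟩ := QuotientGroup.mk_out_eq_mul (Subgroup.center Γ) a
  obtain ⟨⟨d, hd⟩, h2⟩ := QuotientGroup.mk_out_eq_mul (Subgroup.center Γ) b
  have hc' := Subgroup.mem_center_iff.mp hc
  have hd' := Subgroup.mem_center_iff.mp hd
  show ⁅(QuotientGroup.mk a : Γ ⧸ Subgroup.center Γ).out,
    (QuotientGroup.mk b : Γ ⧸ Subgroup.center Γ).out⁆ = ⁅a, b⁆
  rw [h1, h2, commutatorElement_def, commutatorElement_def]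
  calc a * c * (b * d) * (a * c)⁻¹ * (b * d)⁻¹
      = a * (c * (b * d) * c⁻¹) * (a⁻¹ * d⁻¹) * b⁻¹ := by group
    _ = a * b * (d * a⁻¹ * d⁻¹) * b⁻¹ := by rw [← hc' (b * d)]; group
    _ = _ := by rw [← hd' a⁻¹]; group

theorem lower_of_center {Γ : Type u} [Group Γ] [Finite (Γ ⧸ Subgroup.center Γ)] {p : ℕ}
    (hp : p.Prime) (hperf : commutator (Γ ⧸ Subgroup.center Γ) = ⊤)
    (hU : UpperMult (Γ ⧸ Subgroup.center Γ) (Multiplicative (ZMod p))) {z : Γ}
    (hz : (QuotientGroup.mk z : Γ ⧸ Subgroup.center Γ) = 1) (hz' : z ∈ commutator Γ) (h1 : z ≠ 1) :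
    LowerMult (Γ ⧸ Subgroup.center Γ) (Multiplicative (ZMod p)) := by
  haveI := finite_commutatorSet_of_center (Γ := Γ)
  haveI : Fact p.Prime := ⟨hp⟩
  let π := QuotientGroup.mk' (Subgroup.center Γ)
  let σ : commutator Γ →* Γ ⧸ Subgroup.center Γ := π.comp (commutator Γ).subtype
  have hmap : (commutator Γ).map π = ⊤ := by
    rw [commutator_def, Subgroup.map_commutator,
      Subgroup.map_top_of_surjective _ (QuotientGroup.mk'_surjective _), ← commutator_def, hperf]
  have hdec : ∀ a : Γ, ∃ b ∈ commutator Γ, ∃ c ∈ Subgroup.center Γ, a = b * c := by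
    intro a
    obtain ⟨b, hb, e⟩ : π a ∈ (commutator Γ).map π := hmap ▸ Subgroup.mem_top _
    exact ⟨b, hb, b⁻¹ * a, QuotientGroup.eq.mp e, by group⟩
  have hcc : commutator Γ ≤ ⁅commutator Γ, commutator Γ⁆ := by
    rw [commutator_def, Subgroup.commutator_le]
    intro a _ b _
    obtain ⟨a', ha, c, hc, rfl⟩ := hdec a
    obtain ⟨b', hb, d, hd, rfl⟩ := hdec b
    have hc' := Subgroup.mem_center_iff.mp hc
    have hd' := Subgroup.mem_center_iff.mp hd
    have : ⁅a' * c, b' * d⁆ = ⁅a', b'⁆ := by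
      rw [commutatorElement_def, commutatorElement_def]
      calc a' * c * (b' * d) * (a' * c)⁻¹ * (b' * d)⁻¹
          = a' * (c * (b' * d) * c⁻¹) * (a'⁻¹ * d⁻¹) * b'⁻¹ := by group
        _ = a' * b' * (d * a'⁻¹ * d⁻¹) * b'⁻¹ := by rw [← hc' (b' * d)]; group
        _ = _ := by rw [← hd' a'⁻¹]; group
    rw [this]
    exact Subgroup.commutator_mem_commutator ha hb
  have hs : IsStemExtension σ := by
    refine ⟨fun y => ?_, fun x hx => ?_, fun x _ => ?_⟩
    · obtain ⟨b, hb, e⟩ : y ∈ (commutator Γ).map π := hmap ▸ Subgroup.mem_top _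
      exact ⟨⟨b, hb⟩, e⟩
    · have : x.val ∈ Subgroup.center Γ := (QuotientGroup.eq_one_iff _).mp hx
      exact Subgroup.mem_center_iff.mpr fun y => Subtype.ext (Subgroup.mem_center_iff.mp this y)
    · have h2 := hcc x.prop
      have h3 : (commutator (commutator Γ)).map (commutator Γ).subtype =
          ⁅commutator Γ, commutator Γ⁆ := by
        rw [commutator_def (commutator Γ), Subgroup.map_commutator, ← MonoidHom.range_eq_map,
          Subgroup.range_subtype]
      rw [← h3] at h2
      obtain ⟨y, hy, e⟩ := h2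
      rwa [← Subtype.ext e]
  obtain ⟨τ, hτ⟩ := hU _ σ hs
  have h2 : Nat.card σ.ker ∣ p := by
    simpa using Subgroup.card_dvd_of_surjective τ hτ
  have h3 : Nat.card σ.ker ≠ 1 := by
    intro h
    have := (Subgroup.card_eq_one.mp h) ▸ (show (⟨z, hz'⟩ : commutator Γ) ∈ σ.ker from hz)
    exact h1 (congrArg Subtype.val (Subgroup.mem_bot.mp this))
  exact lowerMult_of σ hs (mulEquivOfPrimeCardEq (p := p)
    (((Nat.dvd_prime hp).mp h2).resolve_left h3) (by simp))

/-- all letters are below `k`, the letter `s` occurs an odd number of times, the others an even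
number of times -/
def parW (k s : ℕ) (w : List ℕ) : Bool :=
  w.all (fun y => decide (y < k)) &&
    (List.range k).all fun i => w.count i % 2 == if i = s then 1 else 0

theorem ev_parW {B : Type u} [CommGroup B] {b : ℕ → B} {k s : ℕ} (hb : ∀ i < k, b i * b i = 1)
    {w : List ℕ} (h : parW k s w = true) : ev b w = if s < k then b s else 1 := by
  simp only [parW, Bool.and_eq_true, List.all_eq_true, decide_eq_true_eq, List.mem_range,
    beq_iff_eq] at h
  rw [ev_comm b h.1]
  have : ∀ i ∈ Finset.range k, b i ^ ((w.count i : ℕ) : ℤ) = if s = i then b i else 1 := by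
    intro i hi
    have hi' := Finset.mem_range.mp hi
    rw [zpow_natCast, ← Nat.div_add_mod (w.count i) 2, pow_add, pow_mul, sq, hb i hi', one_pow,
      one_mul, h.2 i hi']
    by_cases h1 : i = s
    · simp [h1]
    · simp [h1, Ne.symm h1]
  rw [Finset.prod_congr rfl this, Finset.prod_ite_eq]
  simp

theorem ev_mem_commutator {Γ : Type u} [Group Γ] {x : ℕ → Γ} {k : ℕ}
    (hx : ∀ i < k, x i * x i = 1) {w : List ℕ} (h : parW k k w = true) :
    ev x w ∈ commutator Γ := by
  have := ev_parW (b := fun i => Abelianization.of (x i))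
    (fun i hi => by rw [← map_mul, hx i hi, map_one]) h
  rw [if_neg (lt_irrefl k), ← map_ev] at this
  exact Abelianization.ker_of Γ ▸ this

theorem perfect_of_words {G : Type u} [Group G] {x : ℕ → G} {k : ℕ}
    (hx : ∀ i < k, x i * x i = 1) (hgen : ∀ S : Subgroup G, (∀ s < k, x s ∈ S) → S = ⊤)
    {R : List (List ℕ)} (hR : ∀ r ∈ R, ev x r = 1)
    (h : ((List.range k).all fun s => R.any (parW k s)) = true) : commutator G = ⊤ := by
  refine hgen _ fun s hs => ?_
  obtain ⟨r, hr, h1⟩ := List.any_eq_true.mp (List.all_eq_true.mp h s (List.mem_range.mpr hs))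
  have := ev_parW (b := fun i => Abelianization.of (x i))
    (fun i hi => by rw [← map_mul, hx i hi, map_one]) h1
  rw [if_pos hs, ← map_ev, hR r hr, map_one] at this
  exact Abelianization.ker_of G ▸ this.symm

end Cfsg.Agent.L0
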