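import Cfsg.Agent.L0.CoxPres
import Cfsg.Agent.L0.PcCert

/-! Presentations of a permutation group checked on a base. -/

set_option autoImplicit false

namespace Cfsg.Agent.L0

universe u

theorem isPres_of_tab {G : Type u} [Group G] [Finite G] {N : ℕ} {A : RAct G N} {base : List ℕ}
    (hb : A.IsBase base) {g : ℕ → G} {kk : ℕ} {T : ℕ → ℕ → ℕ} (h : A.Tab g kk T) {n : ℕ}
    (hn : Nat.card G = n) {W : List (List ℕ)} (hW : lettersB kk W = true) {k : ℕ}
    {R : List (List ℕ)} (hR : lettersB k R = true) (hf : RAct.fixB (dT T W) R base = true)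
    {lv : List (List (List ℕ) × ℕ × List (ℕ × List ℕ))} (hch : chainL (dT T W) N k lv [] = true)
    (hp : n ≤ (lv.map fun q => q.2.2.length).prod)
    (hc : CardLe (PG.gen k R) (List.range k) n) : IsPres (dG g W) k R := by
  refine isPres_of_card (lettersLt_of_B hR) (hb.ev_eq_one (h.derive hW k) hR hf) ?_ hn hc
  obtain ⟨l, b1, _, b3⟩ := chainL_spec (h.derive hW k) (H := genL (dG g W) (List.range k))
    (fun y hy => mem_genL _ (List.mem_range.mpr hy)) lv hch
  exact b1.eq_top (by rw [hn, b3]; exact hp)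

end Cfsg.Agent.L0
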